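import Cfsg.Agent.Lib.Quad.Offender
import Cfsg.Agent.Lib.Core.Component
import Cfsg.Agent.Lib.Coprime.Sylow

/-!
# Wielandt's join theorem, subnormal subgroups acting on elementary abelian groups
-/

set_option autoImplicit false

namespace Cfsg.Lib.Quad
open Subgroup Cfsg.Lib
open scoped commutatorElement

universe u

theorem isSubnormal_map_conj {G : Type*} [Group G] {A : Subgroup G} (hA : A.IsSubnormal) (g : G) :
    (A.map (MulAut.conj g).toMonoidHom).IsSubnormal := hA.map (MulAut.conj g).surjective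

/-- **Wielandt**: the join of two subnormal subgroups of a finite group is subnormal. -/
theorem isSubnormal_sup {G : Type u} [Group G] [Finite G] {A B : Subgroup G} (hA : A.IsSubnormal)
    (hB : B.IsSubnormal) : (A ⊔ B).IsSubnormal := by
  induction hn : Nat.card G using Nat.strong_induction_on generalizing G with
  | _ n ih =>
  have ih' : ∀ {K X Y : Subgroup G}, K ≠ ⊤ → K.IsSubnormal → X ≤ K → Y ≤ K → X.IsSubnormal →
      Y.IsSubnormal → (X ⊔ Y).IsSubnormal := by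
    intro K X Y hK hKs hX hY hXs hYs
    refine IsSubnormal.trans (sup_le hX hY) ?_ hKs
    rw [subgroupOf_sup hX hY]
    refine ih _ ?_ hXs.subgroupOf hYs.subgroupOf rfl
    rw [← hn, ← card_top (G := G)]
    exact card_lt_of_lt (lt_top_iff_ne_top.mpr hK)
  induction A using WellFoundedGT.induction with
  | ind A ihA =>
  rcases IsSubnormal.iff_eq_top_or_exists.mp hA with rfl | ⟨X, hAX, hX, hAn⟩
  · rw [top_sup_eq]; exact IsSubnormal.top
  have h1 := ihA X hAX hX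
  by_cases h2 : X ⊔ B = ⊤
  swap
  · exact ih' h2 h1 (hAX.le.trans le_sup_left) le_sup_right hA hB
  by_cases h3 : B ≤ normalizer (A : Set G)
  · have : A.Normal := by
      rw [← normalizer_eq_top_iff, eq_top_iff, ← h2]
      exact sup_le ((normal_subgroupOf_iff_le_normalizer hAX.le).mp hAn) h3
    rw [sup_comm]
    exact isSubnormal_sup_normal hB A
  obtain ⟨b, hb, hbA⟩ := SetLike.not_le_iff_exists.mp h3
  obtain ⟨N, hN, hAN, hNt⟩ := hA.exists_normal_and_le_and_lt_top_of_ne hAX.ne_top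
  have h4 := ih' hNt.ne hN.isSubnormal hAN
    (map_conj_le_of_mem_normalizer hAN (le_normalizer_of_normal (mem_top b))) hA
    (isSubnormal_map_conj hA b)
  have h5 : A < A ⊔ A.map (MulAut.conj b).toMonoidHom := by
    refine left_lt_sup.mpr fun h => hbA (mem_normalizer_of_map_conj_eq ?_)
    exact eq_of_le_of_card_ge h (card_map_conj A b).ge
  have h6 : A ⊔ A.map (MulAut.conj b).toMonoidHom ⊔ B = A ⊔ B := by
    refine le_antisymm (sup_le (sup_le le_sup_left ?_) le_sup_right)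
      (sup_le_sup_right le_sup_left _)
    exact map_conj_le_of_mem_normalizer le_sup_left (le_normalizer (mem_sup_right hb))
  exact h6 ▸ ihA _ h5 h4

variable {G : Type*} [Group G] [Finite G] {p : ℕ}

theorem isSubnormal_subgroupOf_sup {A B H : Subgroup G} (hA : A ≤ H) (hB : B ≤ H)
    (h1 : (A.subgroupOf H).IsSubnormal) (h2 : (B.subgroupOf H).IsSubnormal) :
    ((A ⊔ B).subgroupOf H).IsSubnormal := by
  rw [subgroupOf_sup hA hB]; exact isSubnormal_sup h1 h2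

omit [Finite G] in
theorem isSubnormal_subgroupOf_map_conj {A H : Subgroup G} (hA : A ≤ H)
    (h1 : (A.subgroupOf H).IsSubnormal) {g : G} (hg : g ∈ normalizer (H : Set G)) :
    ((A.map (MulAut.conj g).toMonoidHom).subgroupOf H).IsSubnormal := by
  have := isSubnormal_map_subgroupOf_map (MulAut.conj g).toMonoidHom hA h1
  rwa [map_conj_eq_of_mem_normalizer hg] at this

theorem le_pCoreOf_of_quadratic {V H D : Subgroup G} (hV : IsElementaryAbelian p V)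
    (hHV : H ≤ normalizer (V : Set G)) (hf : H ⊓ centralizer (V : Set G) = ⊥) (hD : D ≤ H)
    (hs : (D.subgroupOf H).IsSubnormal) (hq : ⁅⁅V, D⁆, D⁆ = ⊥) : D ≤ (pCore p H).map H.subtype :=
  le_pCoreOf_of_isSubnormal hD hs (ea_isPGroup (ea_of_quadratic_of_faithful hV (hD.trans hHV) hq
    (le_bot_iff.mp (hf ▸ inf_le_inf_right _ hD))))

theorem commutator_le_pCoreOf_of_isSubnormal {V H E₁ E₂ : Subgroup G} (hV : IsElementaryAbelian p V)
    (hHV : H ≤ normalizer (V : Set G)) (hf : H ⊓ centralizer (V : Set G) = ⊥) (h₁ : E₁ ≤ H)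
    (h₂ : E₂ ≤ H) (hs₁ : (E₁.subgroupOf H).IsSubnormal) (hs₂ : (E₂.subgroupOf H).IsSubnormal)
    (hc : ⁅⁅V, E₁⁆, E₂⁆ = ⊥) : ⁅E₁, E₂⁆ ≤ (pCore p H).map H.subtype := by
  have hV1 : ⁅V, E₁⁆ ≤ V := commutator_le_of_le_normalizer (h₁.trans hHV)
  have hle : ⁅E₁, E₂⁆ ≤ E₁ ⊔ E₂ :=
    (commutator_mono le_sup_left le_sup_right).trans (commutator_le_self _)
  refine le_pCoreOf_of_quadratic hV hHV hf (hle.trans (sup_le h₁ h₂))
    (isSubnormal_subgroupOf_trans hle (sup_le h₁ h₂) (isSubnormal_subgroupOf_of_le_normalizer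
      (sup_le (normalizer_commutator_ge_left _ _) (normalizer_commutator_ge_right _ _)))
      (isSubnormal_subgroupOf_sup h₁ h₂ hs₁ hs₂)) ?_
  have h1 : ⁅V, ⁅E₁, E₂⁆⁆ ≤ ⁅V, E₁⁆ := by
    rw [commutator_comm]
    refine commutator_commutator_le_of_rotate (normalizer_commutator_ge_right _ _)
      (le_normalizer_of_commutator_eq_bot' hc) (ea_le_normalizer hV hV1) ?_ (hc ▸ bot_le)
    rw [commutator_comm E₂]
    exact commutator_mono (commutator_le_of_le_normalizer (h₂.trans hHV)) le_rfl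
  have h2 : ⁅⁅V, E₁⁆, ⁅E₁, E₂⁆⁆ = ⊥ := by
    rw [commutator_comm]
    refine commutator_commutator_eq_bot_of_rotate ?_ (commutator_eq_bot_of_le ?_ le_rfl hc)
    · rw [commutator_comm E₂, hc, commutator_bot_left]
    · exact commutator_le_of_le_normalizer (normalizer_commutator_ge_right _ _)
  exact commutator_eq_bot_of_le h1 le_rfl h2

/-- `E` acts irreducibly on `[V, E]`. -/
def IrrComm (V E : Subgroup G) : Prop :=
  ∀ U : Subgroup G, U ≤ ⁅V, E⁆ → E ≤ normalizer (U : Set G) → U = ⊥ ∨ U = ⁅V, E⁆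

omit [Finite G] in
theorem commutator_map_conj {V : Subgroup G} (E : Subgroup G) {x : G}
    (hx : x ∈ normalizer (V : Set G)) :
    ⁅V, E.map (MulAut.conj x).toMonoidHom⁆ = (⁅V, E⁆).map (MulAut.conj x).toMonoidHom := by
  rw [map_commutator, map_conj_eq_of_mem_normalizer hx]

omit [Finite G] in
theorem IrrComm.map_conj {V E : Subgroup G} (h : IrrComm V E) {x : G}
    (hx : x ∈ normalizer (V : Set G)) : IrrComm V (E.map (MulAut.conj x).toMonoidHom) := by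
  intro U h1 h2
  rw [commutator_map_conj E hx] at h1 ⊢
  rcases h (U.map (MulAut.conj x⁻¹).toMonoidHom) (by rwa [map_conj_le_iff, inv_inv])
    (by rwa [normalizer_map_conj, ← map_conj_le_iff]) with h3 | h3
  · left
    rwa [map_eq_bot_iff_of_injective _ (MulAut.conj x⁻¹).injective] at h3
  · right
    rw [← h3, map_conj_map_conj_inv]

theorem direct_of_le_normalizer {V E E₁ E₂ : Subgroup G} (hV : IsElementaryAbelian p V)
    (hEV : E ≤ normalizer (V : Set G)) (hf : E ⊓ centralizer (V : Set G) = ⊥) (h₁ : E₁ ≤ E)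
    (h₂ : E₂ ≤ E) (hs₁ : (E₁.subgroupOf E).IsSubnormal) (hs₂ : (E₂.subgroupOf E).IsSubnormal)
    (hOp : pCore p E = ⊥) (hirr₂ : IrrComm V E₂) (h21 : ¬ ⁅V, E₂⁆ ≤ ⁅V, E₁⁆)
    (hn : E₂ ≤ normalizer ((⁅V, E₁⁆ : Subgroup G) : Set G)) :
    ⁅E₁, E₂⁆ = ⊥ ∧ ⁅V, E₁⁆ ⊓ ⁅V, E₂⁆ = ⊥ := by
  have h1 : ⁅V, E₁⁆ ⊓ ⁅V, E₂⁆ = ⊥ := by
    refine (hirr₂ _ inf_le_right
      (le_normalizer_inf hn (normalizer_commutator_ge_right _ _))).resolve_right fun h => h21 ?_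
    rw [← h]; exact inf_le_left
  refine ⟨?_, h1⟩
  have := commutator_le_pCoreOf_of_isSubnormal hV hEV hf h₁ h₂ hs₁ hs₂ (le_bot_iff.mp (h1 ▸ le_inf
    (commutator_le_of_le_normalizer hn)
    (commutator_mono (commutator_le_of_le_normalizer (h₁.trans hEV)) le_rfl)))
  rwa [hOp, Subgroup.map_bot, le_bot_iff] at this

theorem le_normalizer_commutator_of_card_le {V E E₁ E₂ : Subgroup G} (hV : IsElementaryAbelian p V)
    (hEV : E ≤ normalizer (V : Set G)) (hf : E ⊓ centralizer (V : Set G) = ⊥) (h₁ : E₁ ≤ E)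
    (h₂ : E₂ ≤ E) (hs₁ : (E₁.subgroupOf E).IsSubnormal) (hs₂ : (E₂.subgroupOf E).IsSubnormal)
    (hOp : pCore p E = ⊥) (hirr₁ : IrrComm V E₁) (hc₁ : E₁ ≠ ⊥) (hc₂ : 2 < Nat.card E₂)
    (hcard : Nat.card ↥(⁅V, E₂⁆) ≤ Nat.card ↥(⁅V, E₁⁆))
    (ih : ∀ x ∈ E₂, x ∉ normalizer ((⁅V, E₁⁆ : Subgroup G) : Set G) →
      ⁅E₁, E₁.map (MulAut.conj x).toMonoidHom⁆ = ⊥ ∧
        ⁅V, E₁⁆ ⊓ (⁅V, E₁⁆).map (MulAut.conj x).toMonoidHom = ⊥) :
    E₂ ≤ normalizer ((⁅V, E₁⁆ : Subgroup G) : Set G) := by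
  by_contra hcon
  obtain ⟨x, hx, hxn⟩ := SetLike.not_le_iff_exists.mp hcon
  have hquad : ∀ D ≤ E, (D.subgroupOf E).IsSubnormal → ⁅⁅V, D⁆, D⁆ = ⊥ → D = ⊥ := by
    intro D hD hs hq
    have := le_pCoreOf_of_quadratic hV hEV hf hD hs hq
    rwa [hOp, Subgroup.map_bot, le_bot_iff] at this
  have hV1 : ⁅V, E₁⁆ ≤ V := commutator_le_of_le_normalizer (h₁.trans hEV)
  have hE1 : E₁ ≤ normalizer ((⁅V, E₁⁆ : Subgroup G) : Set G) := normalizer_commutator_ge_right _ _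
  have hmem : ∀ y ∈ E₂, ∀ v ∈ V, y * v * y⁻¹ * v⁻¹ ∈ ⁅V, E₂⁆ := fun y hy v hv => by
    rw [commutator_comm]; exact commutator_mem_commutator hy hv
  -- `C_{V₁}(E₁) = 1`
  have hC : ⁅V, E₁⁆ ⊓ centralizer (E₁ : Set G) = ⊥ := by
    refine (hirr₁ _ inf_le_left (le_normalizer_inf hE1
      (le_normalizer_centralizer le_normalizer))).resolve_right fun h => hc₁ (hquad _ h₁ hs₁ ?_)
    rw [commutator_eq_bot_iff_le_centralizer, ← h]
    exact inf_le_right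
  -- `E₁` centralizes the conjugates of `V₁`
  have hcent : ∀ y ∈ E₂, y ∉ normalizer ((⁅V, E₁⁆ : Subgroup G) : Set G) → ∀ v ∈ ⁅V, E₁⁆,
      y * v * y⁻¹ ∈ centralizer (E₁ : Set G) := by
    intro y hy hyn v hv
    obtain ⟨h3, h4⟩ := ih y hy hyn
    have h5 : E₁ ≤ normalizer ((⁅V, E₁⁆).map (MulAut.conj y).toMonoidHom : Set G) := by
      rw [← commutator_map_conj E₁ (hEV (h₂ hy))]
      exact (le_inf (h₁.trans hEV) (le_normalizer_of_commutator_eq_bot h3)).trans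
        (normalizer_inf_normalizer_le_normalizer_commutator _ _)
    have h6 : ⁅(⁅V, E₁⁆).map (MulAut.conj y).toMonoidHom, E₁⁆ = ⊥ := le_bot_iff.mp (h4 ▸ le_inf
      (commutator_mono (map_conj_le_of_mem_normalizer hV1 (hEV (h₂ hy))) le_rfl)
      (commutator_le_of_le_normalizer h5))
    exact le_centralizer_of_commutator_eq_bot h6 ⟨v, hv, rfl⟩
  have hone : ∀ v ∈ ⁅V, E₁⁆, x * v * x⁻¹ ∈ ⁅V, E₁⁆ → v = 1 := by
    intro v hv h
    have : x * v * x⁻¹ ∈ ⁅V, E₁⁆ ⊓ centralizer (E₁ : Set G) := ⟨h, hcent x hx hxn v hv⟩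
    rw [hC, mem_bot] at this
    simpa using this
  -- every element of `V₂` is a commutator of `x` with an element of `V₁`
  have hsurj : ∀ w ∈ ⁅V, E₂⁆, ∃ v ∈ ⁅V, E₁⁆, x * v * x⁻¹ * v⁻¹ = w := by
    let f : (⁅V, E₁⁆ : Subgroup G) → (⁅V, E₂⁆ : Subgroup G) := fun v => ⟨_, hmem x hx v (hV1 v.2)⟩
    have hinj : Function.Injective f := by
      intro v v' h
      have h3 : x * v * x⁻¹ * (v : G)⁻¹ = x * v' * x⁻¹ * (v' : G)⁻¹ := congrArg Subtype.val h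
      have h4 : x * ((v' : G)⁻¹ * v) * x⁻¹ = (v' : G)⁻¹ * v := by
        calc _ = (x * v' * x⁻¹)⁻¹ * (x * v * x⁻¹ * (v : G)⁻¹) * v := by group
          _ = _ := by rw [h3]; group
      have h5 := hone _ (mul_mem (inv_mem v'.2) v.2) (h4.symm ▸ mul_mem (inv_mem v'.2) v.2)
      exact Subtype.ext (inv_mul_eq_one.mp h5).symm
    have hb := hinj.bijective_of_nat_card_le hcard
    intro w hw
    obtain ⟨v, hv⟩ := hb.2 ⟨w, hw⟩
    exact ⟨v, v.2, congrArg Subtype.val hv⟩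
  have hinf : ∀ w ∈ ⁅V, E₁⁆, w ∈ ⁅V, E₂⁆ → w = 1 := by
    intro w h1 h2
    obtain ⟨v, hv, rfl⟩ := hsurj w h2
    rw [hone v hv (by simpa using mul_mem h1 hv)]
    simp
  have hcos : ∀ y ∈ E₂, y ∉ normalizer ((⁅V, E₁⁆ : Subgroup G) : Set G) →
      x⁻¹ * y ∈ normalizer ((⁅V, E₁⁆ : Subgroup G) : Set G) := by
    intro y hy hyn
    refine mem_normalizer_of_map_conj_eq (eq_of_le_of_card_ge ?_ (card_map_conj _ _).ge)
    rintro _ ⟨v, hv, rfl⟩
    obtain ⟨u, hu, h⟩ := hsurj _ (hmem y hy v (hV1 hv))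
    have h3 : u⁻¹ * v = (x * u * x⁻¹)⁻¹ * (y * v * y⁻¹) := by
      rw [eq_inv_mul_iff_mul_eq, ← mul_assoc, h]; group
    have h4 : u⁻¹ * v ∈ ⁅V, E₁⁆ ⊓ centralizer (E₁ : Set G) := mem_inf.mpr ⟨mul_mem (inv_mem hu) hv,
      h3 ▸ mul_mem (inv_mem (hcent x hx hxn u hu)) (hcent y hy hyn v hv)⟩
    rw [hC, mem_bot, inv_mul_eq_one] at h4
    subst h4
    have h5 : x⁻¹ * y * u * (x⁻¹ * y)⁻¹ = u := by
      calc _ = x⁻¹ * (y * u * y⁻¹ * u⁻¹) * u * x := by group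
        _ = _ := by rw [← h]; group
    change x⁻¹ * y * u * (x⁻¹ * y)⁻¹ ∈ _
    rwa [h5]
  set N := E₂ ⊓ normalizer ((⁅V, E₁⁆ : Subgroup G) : Set G) with hN
  have hN1 : ∀ n ∈ N, ∀ v ∈ ⁅V, E₁⁆, n * v * n⁻¹ = v := fun n hn v hv =>
    mul_inv_eq_one.mp (hinf _ (mul_mem (conj_mem_of_mem_normalizer hn.2 hv) (inv_mem hv))
      (hmem n hn.1 v (hV1 hv)))
  have hNx : ∀ n ∈ N, x⁻¹ * n * x ∈ N := fun n hn =>
    mem_inf.mpr ⟨mul_mem (mul_mem (inv_mem hx) hn.1) hx, by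
      rw [mul_assoc]
      exact hcos _ (mul_mem hn.1 hx) fun h => hxn (by
        simpa using mul_mem (inv_mem (mem_inf.mp hn).2) h)⟩
  have hNn : E₂ ≤ normalizer (N : Set G) := by
    intro g hg
    refine inv_mem_iff.mp (mem_normalizer_of_map_conj_eq
      (eq_of_le_of_card_ge ?_ (card_map_conj _ _).ge))
    rintro _ ⟨n, hn, rfl⟩
    change g⁻¹ * n * g⁻¹⁻¹ ∈ N
    rw [inv_inv]
    by_cases h : g ∈ normalizer ((⁅V, E₁⁆ : Subgroup G) : Set G)
    · exact mul_mem (mul_mem (inv_mem ⟨hg, h⟩) hn) ⟨hg, h⟩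
    · have h3 : x⁻¹ * g ∈ N := mem_inf.mpr ⟨mul_mem (inv_mem hx) hg, hcos g hg h⟩
      have := mul_mem (mul_mem (inv_mem h3) (hNx n hn)) h3
      simpa [mul_assoc] using this
  have hNb : N = ⊥ := by
    refine hquad N (inf_le_left.trans h₂) (isSubnormal_subgroupOf_trans inf_le_left h₂
      (isSubnormal_subgroupOf_of_le_normalizer hNn) hs₂)
      (commutator_eq_bot_of_le (commutator_mono le_rfl inf_le_left) le_rfl ?_)
    rw [commutator_eq_bot_iff_forall]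
    intro w hw n hn
    obtain ⟨v, hv, rfl⟩ := hsurj w hw
    have h3 := hN1 _ (hNx n hn) v hv
    have h4 := hN1 n hn v hv
    calc _ = x * (x⁻¹ * n * x * v * (x⁻¹ * n * x)⁻¹) * x⁻¹ * (n * v * n⁻¹)⁻¹ * n := by rw [h3, h4]
      _ = _ := by group
  have hsub : (E₂ : Set G) ⊆ {1, x} := by
    intro y hy
    by_cases h : y ∈ normalizer ((⁅V, E₁⁆ : Subgroup G) : Set G)
    · left
      exact mem_bot.mp (hNb ▸ (⟨hy, h⟩ : y ∈ N))
    · right
      have : x⁻¹ * y ∈ N := mem_inf.mpr ⟨mul_mem (inv_mem hx) hy, hcos y hy h⟩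
      rw [hNb, mem_bot, inv_mul_eq_one] at this
      exact this.symm
  have := (Set.ncard_le_ncard hsub).trans (Set.ncard_insert_le _ _)
  rw [Set.ncard_singleton] at this
  exact absurd hc₂ (not_lt.mpr this)

theorem direct_of_irrComm {V : Subgroup G} (hV : IsElementaryAbelian p V) (E : Subgroup G) :
    ∀ {E₁ E₂ : Subgroup G}, E ≤ normalizer (V : Set G) → E ⊓ centralizer (V : Set G) = ⊥ →
    E = E₁ ⊔ E₂ → (E₁.subgroupOf E).IsSubnormal → (E₂.subgroupOf E).IsSubnormal →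
    pCore p E = ⊥ → IrrComm V E₁ → IrrComm V E₂ → ¬ ⁅V, E₁⁆ ≤ ⁅V, E₂⁆ → ¬ ⁅V, E₂⁆ ≤ ⁅V, E₁⁆ →
    2 < Nat.card E₁ → 2 < Nat.card E₂ → ⁅E₁, E₂⁆ = ⊥ ∧ ⁅V, E₁⁆ ⊓ ⁅V, E₂⁆ = ⊥ := by
  induction E using WellFoundedLT.induction with
  | ind E ih =>
  have key : ∀ {E₁ E₂ : Subgroup G}, E ≤ normalizer (V : Set G) → E ⊓ centralizer (V : Set G) = ⊥ →
      E = E₁ ⊔ E₂ → (E₁.subgroupOf E).IsSubnormal → (E₂.subgroupOf E).IsSubnormal →
      pCore p E = ⊥ → IrrComm V E₁ → IrrComm V E₂ → ¬ ⁅V, E₂⁆ ≤ ⁅V, E₁⁆ →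
      2 < Nat.card E₁ → 2 < Nat.card E₂ → Nat.card ↥(⁅V, E₂⁆) ≤ Nat.card ↥(⁅V, E₁⁆) →
      ⁅E₁, E₂⁆ = ⊥ ∧ ⁅V, E₁⁆ ⊓ ⁅V, E₂⁆ = ⊥ := by
    intro E₁ E₂ hEV hf hgen hs₁ hs₂ hOp hirr₁ hirr₂ h21 hc₁ hc₂ hcard
    have h₁ : E₁ ≤ E := hgen ▸ le_sup_left
    have h₂ : E₂ ≤ E := hgen ▸ le_sup_right
    refine direct_of_le_normalizer hV hEV hf h₁ h₂ hs₁ hs₂ hOp hirr₂ h21
      (le_normalizer_commutator_of_card_le hV hEV hf h₁ h₂ hs₁ hs₂ hOp hirr₁
        (by rintro rfl; simp at hc₁) hc₂ hcard fun x hx hxn => ?_)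
    have hxE : x ∈ normalizer (E : Set G) := le_normalizer (h₂ hx)
    have hxV := hEV (h₂ hx)
    have h3 := map_conj_le_of_mem_normalizer h₁ hxE
    have hs₃ := isSubnormal_subgroupOf_map_conj h₁ hs₁ hxE
    have hne : E₁.subgroupOf E ≠ ⊤ := fun h => hxn (normalizer_commutator_ge_right V E₁
      (subgroupOf_eq_top.mp h (h₂ hx)))
    obtain ⟨N, hN, hEN, hNt⟩ := hs₁.exists_normal_and_le_and_lt_top_of_ne hne
    have hlt : E₁ ⊔ E₁.map (MulAut.conj x).toMonoidHom < E := by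
      refine lt_of_le_of_ne (sup_le h₁ h3) fun h => hNt.ne ?_
      rw [eq_top_iff, ← subgroupOf_self E]
      conv_lhs => enter [1]; rw [← h]
      rw [subgroupOf_sup h₁ h3]
      refine sup_le hEN ?_
      rintro ⟨_, hy⟩ ⟨y, hy', rfl⟩
      exact hN.conj_mem ⟨y, h₁ hy'⟩ (hEN hy') ⟨x, h₂ hx⟩
    have hs₄ := isSubnormal_subgroupOf_sup h₁ h3 hs₁ hs₃
    have hne' : (⁅V, E₁⁆).map (MulAut.conj x).toMonoidHom ≠ ⁅V, E₁⁆ :=
      fun h => hxn (mem_normalizer_of_map_conj_eq h)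
    rw [← commutator_map_conj E₁ hxV]
    refine ih _ hlt (hlt.le.trans hEV) (le_bot_iff.mp (hf ▸ inf_le_inf_right _ hlt.le)) rfl
      (isSubnormal_subgroupOf_of_le hlt.le hs₁) (isSubnormal_subgroupOf_of_le hlt.le hs₃) ?_ hirr₁
      (hirr₁.map_conj hxV) ?_ ?_ hc₁ (by rwa [card_map_conj])
    · have := pCoreOf_le_pCoreOf_of_isSubnormal (p := p) hlt.le hs₄
      rwa [hOp, Subgroup.map_bot, le_bot_iff,
        map_eq_bot_iff_of_injective _ (Subgroup.subtype_injective _)] at this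
    · rw [commutator_map_conj E₁ hxV]
      exact fun h => hne' (eq_of_le_of_card_ge h (card_map_conj _ _).le).symm
    · rw [commutator_map_conj E₁ hxV]
      exact fun h => hne' (eq_of_le_of_card_ge h (card_map_conj _ _).ge)
  intro E₁ E₂ hEV hf hgen hs₁ hs₂ hOp hirr₁ hirr₂ h12 h21 hc₁ hc₂
  rcases le_total (Nat.card ↥(⁅V, E₂⁆)) (Nat.card ↥(⁅V, E₁⁆)) with h | h
  · exact key hEV hf hgen hs₁ hs₂ hOp hirr₁ hirr₂ h21 hc₁ hc₂ h
  · rw [commutator_comm, inf_comm]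
    exact key hEV hf (hgen.trans (sup_comm _ _)) hs₂ hs₁ hOp hirr₂ hirr₁ h12 hc₂ hc₁ h

omit [Finite G] in
theorem commutator_sup_eq_sup {V E₁ E₂ : Subgroup G} (h₁ : E₁ ≤ normalizer (V : Set G))
    (h₂ : E₂ ≤ normalizer (V : Set G)) : ⁅V, E₁ ⊔ E₂⁆ = ⁅V, E₁⁆ ⊔ ⁅V, E₂⁆ := by
  have h : ⁅V, E₁⁆ ⊔ ⁅V, E₂⁆ ≤ V :=
    sup_le (commutator_le_of_le_normalizer h₁) (commutator_le_of_le_normalizer h₂)
  exact le_antisymm (commutator_sup_right_le le_sup_left le_sup_right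
    (le_normalizer_of_commutator_le le_sup_left h) (le_normalizer_of_commutator_le le_sup_right h))
    (sup_le (commutator_mono le_rfl le_sup_left) (commutator_mono le_rfl le_sup_right))

end Cfsg.Lib.Quad
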