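import Cfsg.Agent.Lib.Quad.Holo
import Cfsg.Agent.Lib.Quad.Subn
import Cfsg.Agent.Lib.PGroup.CoprimeAut

/-!
# Failure of factorization and coprime operators
-/

set_option autoImplicit false

namespace Cfsg.Lib.Quad
open Subgroup Cfsg.Lib
open scoped commutatorElement MatrixGroups

universe u

theorem exists_mul_mem_centralizer_of_orbit {G : Type*} [Group G] [Finite G] {X F : Subgroup G}
    {e : G} (hcomm : ∀ x ∈ X, Commute e (x * e * x⁻¹))
    (hF : ∀ x ∈ X, x * e * x⁻¹ = e ∨ x * e * x⁻¹ ∈ F) :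
    ∃ f ∈ F, e * f ∈ centralizer (X : Set G) := by
  classical
  let T := (Set.toFinite {t | ∃ x ∈ X, x * e * x⁻¹ = t}).toFinset
  have hT : ∀ t, t ∈ T ↔ ∃ x ∈ X, x * e * x⁻¹ = t := fun t => Set.Finite.mem_toFinset _
  have hc : {t | t ∈ T.val}.Pairwise Commute := by
    intro s hs t ht _
    obtain ⟨x, hx, rfl⟩ := (hT s).mp hs
    obtain ⟨y, hy, rfl⟩ := (hT t).mp ht
    have := (hcomm _ (mul_mem (inv_mem hx) hy)).map (MulAut.conj x)
    simpa [mul_assoc] using this
  have key : ∀ (s t : Multiset G) (_ : s = t) c c', s.noncommProd c = t.noncommProd c' := by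
    rintro _ _ rfl _ _; rfl
  have he : e ∈ T.val := (hT e).mpr ⟨1, one_mem _, by simp⟩
  have h1 : T.val.noncommProd hc ∈ centralizer (X : Set G) := by
    intro x hx
    have h2 : T.map (MulAut.conj x).toEquiv.toEmbedding = T := by
      refine Finset.eq_of_subset_of_card_le (fun t ht => ?_) (Finset.card_map _).ge
      obtain ⟨s, hs, rfl⟩ := Finset.mem_map.mp ht
      obtain ⟨y, hy, rfl⟩ := (hT s).mp hs
      exact (hT _).mpr ⟨x * y, mul_mem hx hy, by simp [mul_assoc]⟩
    exact mul_inv_eq_iff_eq_mul.mp ((Multiset.map_noncommProd T.val hc (MulAut.conj x)).trans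
      (key _ T.val (congrArg Finset.val h2) _ hc))
  rw [key _ _ (Multiset.cons_erase he).symm hc (by rwa [Multiset.cons_erase he]),
    Multiset.noncommProd_cons] at h1
  refine ⟨_, F.multiset_noncommProd_mem _ _ fun t ht => ?_, h1⟩
  obtain ⟨h4, h5⟩ := (T.nodup.mem_erase_iff).mp ht
  obtain ⟨x, hx, rfl⟩ := (hT t).mp h5
  exact (hF x hx).resolve_left h4

theorem IsTransv.commSub_le_commSub_inf {p : ℕ} [hp : Fact p.Prime] {M : Type*} [AddCommGroup M]
    [Module (ZMod p) M] {H : Type*} [Group H] {ρ : H →* Module.End (ZMod p) M} {a : H}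
    {f : M →ₗ[ZMod p] ZMod p} {u : M} {N : Subgroup H} [N.Normal] (hρ : Function.Injective ρ)
    (ha : IsTransv ρ a f u) (P : Plane ρ (transvE N a)) {n : H} (hn : n ∈ N)
    (hna : n * a ≠ a * n) : commSub ρ (transvE N a) ≤ commSub ρ (N ⊓ transvE N a) := by
  refine ha.commSub_le P (le_stabSub fun _ hm _ hx => apply_mem_commSub
    (le_normalizer_inf le_normalizer (le_normalizer_transvE N a) hm) hx) fun h0 => ?_
  have h1 : commSub ρ (transvE N a) ≤ fixSub ρ (transvE N a) := by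
    rw [← ha.fixSub_inf hρ P hn hna]
    intro x hx m hm
    have : ρ m x - x ∈ commSub ρ (N ⊓ transvE N a) ⊓ commSub ρ (transvE N a) :=
      ⟨sub_mem_commSub hm x, sub_mem_commSub hm.2 x⟩
    rwa [h0, Submodule.mem_bot, sub_eq_zero] at this
  have h2 := ha.mem_commSub (mem_transvE N a)
  exact ha.u_ne (Submodule.disjoint_def.mp P.compl.disjoint u h2 (h1 h2))

variable {G : Type u} [Group G] {p : ℕ}

theorem le_normalizer_iSup' {ι : Sort*} {H : Subgroup G} {U : ι → Subgroup G}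
    (h : ∀ i, H ≤ normalizer (U i : Set G)) : H ≤ normalizer ((⨆ i, U i : Subgroup G) : Set G) := by
  intro g hg
  refine mem_normalizer_of_map_conj_eq ?_
  rw [Subgroup.map_iSup]
  exact iSup_congr fun i => map_conj_eq_of_mem_normalizer (h i hg)

theorem offMeasure_map_conj {V : Subgroup G} (A : Subgroup G) {y : G}
    (hy : y ∈ normalizer (V : Set G)) :
    offMeasure V (A.map (MulAut.conj y).toMonoidHom) = offMeasure V A := by
  rw [offMeasure, offMeasure, card_map_conj, centralizer_map_conj]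
  conv_lhs => rw [← map_conj_eq_of_mem_normalizer hy]
  rw [← map_conj_inf, card_map_conj]

theorem bestOffender_map_conj {V A : Subgroup G} (hA : IsBestOffenderOn p V A) {y : G}
    (hy : y ∈ normalizer (V : Set G)) :
    IsBestOffenderOn p V (A.map (MulAut.conj y).toMonoidHom) := by
  have hC := normalizer_le_normalizer_centralizer V hy
  refine ⟨fun B hB => ?_, ?_, ?_⟩
  · change offMeasure _ _ ≤ offMeasure _ _
    rw [offMeasure_map_conj _ hy, ← offMeasure_map_conj B (inv_mem hy)]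
    exact hA.1 _ (by rwa [map_conj_le_iff, inv_inv])
  · rw [← map_commutator]
    exact map_conj_le_of_mem_normalizer hA.2.1 hC
  · rintro _ ⟨a, ha, rfl⟩
    rw [← map_pow]
    exact conj_mem_of_mem_normalizer hC (hA.2.2 a ha)

theorem MinOff.map_conj {V H A : Subgroup G} (hA : MinOff p V H A) {y : G}
    (hy : y ∈ normalizer (V : Set G)) (hH : y ∈ normalizer (H : Set G)) :
    MinOff p V H (A.map (MulAut.conj y).toMonoidHom) :=
  ⟨map_conj_le_of_mem_normalizer hA.le hH, bestOffender_map_conj hA.off hy,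
    (card_map_conj _ _).trans hA.card⟩

theorem map_conj_ffE {N : Subgroup G} (A : Subgroup G) {y : G} (hy : y ∈ normalizer (N : Set G)) :
    (⁅N, A⁆ ⊔ A).map (MulAut.conj y).toMonoidHom =
      ⁅N, A.map (MulAut.conj y).toMonoidHom⁆ ⊔ A.map (MulAut.conj y).toMonoidHom := by
  rw [Subgroup.map_sup, commutator_map_conj A hy]

theorem mem_centralizer_of_card_sq [Finite G] [hp : Fact p.Prime] {q : ℕ} [hq : Fact q.Prime]
    {W : Subgroup G} (hW : Nat.card W = p ^ 2) (h23 : p = 2 ∨ p = 3) (h2 : q ≠ 2) (h3 : q ≠ 3)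
    {y : G} (hy : y ^ q = 1) (hn : y ∈ normalizer (W : Set G)) : y ∈ centralizer (W : Set G) := by
  have h1 := pg_card_modEq_card_fixed (α := MulAut.conj y) (q := q) (H := W)
    (by rw [← map_pow, hy, map_one]) (fun x hx => conj_mem_of_mem_normalizer hn hx)
  set C := W ⊓ (MulAut.conj y).toMonoidHom.eqLocus (MonoidHom.id G)
  have h4 : Nat.card C ∣ p ^ 2 := hW ▸ card_dvd_of_le inf_le_left
  have h5 : C = W := by
    refine eq_of_le_of_card_ge inf_le_left ?_
    obtain ⟨k, hk, e⟩ := (Nat.dvd_prime_pow hp.out).mp h4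
    rw [hW, e] at h1 ⊢
    have h6 := (Nat.modEq_iff_dvd' (Nat.pow_le_pow_right hp.out.pos hk)).mp h1.symm
    have h5 := hq.out.five_le_of_ne_two_of_ne_three h2 h3
    have h7 : ¬ q ∣ 8 := fun h => h2 ((Nat.prime_dvd_prime_iff_eq hq.out Nat.prime_two).mp
      (hq.out.dvd_of_dvd_pow (n := 3) h))
    have h8 : ¬ q ∣ 6 := fun h => by
      have := Nat.le_of_dvd (by norm_num) h
      interval_cases q <;> simp_all (config := { decide := true })
    rcases h23 with rfl | rfl <;> interval_cases k <;> simp_all <;>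
      exact absurd (Nat.le_of_dvd (by norm_num) h6) (by omega)
  intro w hw
  have : w ∈ C := h5 ▸ hw
  exact (mul_inv_eq_iff_eq_mul.mp this.2).symm

namespace FFSetup
variable [Finite G] [hp : Fact p.Prime] {V H N A B Y : Subgroup G} (h : FFSetup p V H N)
include h

theorem commutator_ffE_le (hA : MinOff p V H A) :
    ⁅V, ⁅N, A⁆ ⊔ A⁆ ≤ ⁅V, N ⊓ (⁅N, A⁆ ⊔ A)⁆ := by
  obtain ⟨M, _, _, ⟨m⟩⟩ := exists_conjModel h.ea h.norm
  obtain ⟨a, f, u, ht, hz, hE, n, hn, hna⟩ := h.exists_transv m hA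
  have := normal_subgroupOf_of_le_normalizer h.normal
  have hρ := m.rep_injective h.faith
  obtain ⟨⟨P⟩, -⟩ := ht.exists_plane hρ h.cop' hn hna
  rw [← m.sub_commSub (h.ffE_le hA.le), ← m.sub_commSub (inf_le_left.trans h.le), hE]
  refine m.sub_mono ((ht.commSub_le_commSub_inf hρ P hn hna).trans_eq ?_)
  rw [← hE]; rfl

variable {q : ℕ} [hq : Fact q.Prime] (hY : ∀ y ∈ Y, y ^ q = 1) (hqH : ¬ q ∣ Nat.card H)
  (hYV : Y ≤ normalizer (V : Set G)) (hYH : Y ≤ normalizer (H : Set G))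
  (hYN : Y ≤ normalizer (N : Set G))
include hY hqH hYV hYH hYN

theorem operator_dichotomy (hA : MinOff p V H A) {y : G} (hy : y ∈ Y) :
    (y ∈ centralizer ((⁅V, ⁅N, A⁆ ⊔ A⁆ : Subgroup G) : Set G) ∧
      y ∈ centralizer ((⁅N, A⁆ ⊔ A : Subgroup G) : Set G)) ∨
    ((⁅N, A⁆ ⊔ A).map (MulAut.conj y).toMonoidHom ≤
        centralizer ((⁅V, ⁅N, A⁆ ⊔ A⁆ : Subgroup G) : Set G) ∧
      (⁅V, ⁅N, A⁆ ⊔ A⁆).map (MulAut.conj y).toMonoidHom ≤
        centralizer ((⁅N, A⁆ ⊔ A : Subgroup G) : Set G)) := by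
  have hB := hA.map_conj (hYV hy) (hYH hy)
  by_cases he : (⁅N, A⁆ ⊔ A).map (MulAut.conj y).toMonoidHom = ⁅N, A⁆ ⊔ A
  · left
    obtain ⟨h23, ⟨e⟩, hW, -⟩ := h.plane hA
    have hd : Nat.card SL(2, ZMod p) ∣ Nat.card H :=
      Nat.card_congr e.toEquiv ▸ card_dvd_of_le (h.ffE_le hA.le)
    have h6 : 6 ∣ Nat.card H := by
      rcases h23 with rfl | rfl
      · rwa [card_sl2_zmod_two] at hd
      · rw [card_sl2_zmod_three] at hd; exact Dvd.dvd.trans (by norm_num) hd
    have hE := mem_normalizer_of_map_conj_eq he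
    have h1 := mem_centralizer_of_card_sq hW h23
      (by rintro rfl; exact hqH (Dvd.dvd.trans (by norm_num) h6))
      (by rintro rfl; exact hqH (Dvd.dvd.trans (by norm_num) h6)) (hY y hy)
      (normalizer_inf_normalizer_le_normalizer_commutator _ _ ⟨hYV hy, hE⟩)
    refine ⟨h1, fun x hx => ?_⟩
    have h2 : x * y * x⁻¹ * y⁻¹ ∈ (⁅N, A⁆ ⊔ A) ⊓
        centralizer ((⁅V, ⁅N, A⁆ ⊔ A⁆ : Subgroup G) : Set G) := by
      refine mem_inf.mpr ⟨?_, mul_mem (conj_mem_of_mem_normalizer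
        (normalizer_le_normalizer_centralizer _ (normalizer_commutator_ge_right _ _ hx)) h1)
        (inv_mem h1)⟩
      simpa [mul_assoc] using mul_mem hx (conj_mem_of_mem_normalizer hE (inv_mem hx))
    rwa [h.faithful_plane hA, mem_bot, mul_inv_eq_one, mul_inv_eq_iff_eq_mul] at h2
  · right
    rw [← commutator_map_conj _ (hYV hy)]
    rw [map_conj_ffE A (hYN hy)] at he ⊢
    exact ⟨le_centralizer_iff.mp ((h.dichotomy hA hB).resolve_left (Ne.symm he)),
      (h.dichotomy hB hA).resolve_left he⟩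

variable (hS3 : H = ⨆ A : {A : Subgroup G // A ≤ H ∧ IsBestOffenderOn p V A}, (A : Subgroup G))
include hS3

theorem exists_diagonal (hA : MinOff p V H A) {e : G} (he : e ∈ ⁅N, A⁆ ⊔ A) :
    ∃ f ∈ H ⊓ centralizer ((⁅V, ⁅N, A⁆ ⊔ A⁆ : Subgroup G) : Set G),
      e * f ∈ centralizer (Y : Set G) := by
  have hF : ∀ y ∈ Y, y * e * y⁻¹ = e ∨
      y * e * y⁻¹ ∈ H ⊓ centralizer ((⁅V, ⁅N, A⁆ ⊔ A⁆ : Subgroup G) : Set G) := fun y hy =>
    (h.operator_dichotomy hY hqH hYV hYH hYN hA hy).imp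
      (fun h1 => mul_inv_eq_iff_eq_mul.mpr (h1.2 e he).symm)
      (fun h1 => ⟨conj_mem_of_mem_normalizer (hYH hy) (h.ffE_le hA.le he), h1.1 ⟨e, he, rfl⟩⟩)
  refine exists_mul_mem_centralizer_of_orbit (fun y hy => ?_) hF
  rcases hF y hy with h1 | h1
  · rw [h1]
  · exact commutator_eq_bot_iff_forall.mp (h.factor hS3 hA).1 e he _ h1

theorem le_sylow_sup_centralizer {T : Subgroup G} (hT : IsSylowIn p T H) :
    H ≤ T ⊔ (H ⊓ centralizer (Y : Set G)) := by
  refine h.le_iSup_minOff hS3 fun B hB => ?_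
  obtain ⟨k, hk, hle⟩ := hT.exists_conj_le (ea_isPGroup (h.ea_of_bestOffender hB.le hB.off)) hB.le
  have hA := hB.map_conj (h.norm hk) (le_normalizer hk)
  obtain ⟨h1, -, h2, -⟩ := h.factor hS3 hA
  obtain ⟨e, he, f, hf, hef⟩ := (mem_sup_of_commutator_eq_bot h1).mp (h2.ge (inv_mem hk))
  obtain ⟨f', hf', hd⟩ := h.exists_diagonal hY hqH hYV hYH hYN hS3 hA he
  intro b hb
  have ha : k * b * k⁻¹ ∈ B.map (MulAut.conj k).toMonoidHom := ⟨b, hb, rfl⟩
  have h3 := commutator_eq_bot_iff_forall.mp h1 _ (mem_sup_right ha)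
  have h4 : e * f' ∈ T ⊔ (H ⊓ centralizer (Y : Set G)) :=
    mem_sup_right ⟨mul_mem (h.ffE_le hA.le he) hf'.1, hd⟩
  have h5 : b = e * f' * (k * b * k⁻¹) * (e * f')⁻¹ := by
    calc b = k⁻¹ * (k * b * k⁻¹) * k⁻¹⁻¹ := by group
      _ = e * (f * (k * b * k⁻¹)) * f⁻¹ * e⁻¹ := by
        generalize k * b * k⁻¹ = a
        rw [← hef]; group
      _ = e * (f' * (k * b * k⁻¹)) * f'⁻¹ * e⁻¹ := by
        rw [← h3 f hf, ← h3 f' hf']; group
      _ = _ := by group
  rw [h5]
  exact mul_mem (mul_mem h4 (mem_sup_left (hle ha))) (inv_mem h4)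

theorem exists_fixed_plane (hA : MinOff p V H A) : ∃ W : Subgroup G,
    W ≤ V ⊓ centralizer (Y : Set G) ∧ Nat.card W = p ^ 2 ∧
    H ⊓ centralizer (Y : Set G) ≤ normalizer (W : Set G) ∧
    ∃ ψ : ↥(H ⊓ centralizer (Y : Set G)) →* SL(2, ZMod p), Function.Surjective ψ ∧
      ∀ d, ψ d = 1 ↔ (d : G) ∈ centralizer (W : Set G) := by
  obtain ⟨-, ⟨iso⟩, hcard, hi, hs, -⟩ := h.plane hA
  obtain ⟨hEF, hEF', hEF'', -⟩ := h.factor hS3 hA
  have hle := h.commutator_ffE_le hA
  have hdich := fun y hy => h.operator_dichotomy hY hqH hYV hYH hYN hA (y := y) hy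
  have hdiag := fun e he => h.exists_diagonal hY hqH hYV hYH hYN hS3 hA (e := e) he
  have hEH := h.ffE_le hA.le
  have hHE := h.le_normalizer_ffE hS3 hA
  have hHE' : ∀ y ∈ Y, H ≤ normalizer ((⁅N, A⁆ ⊔ A).map (MulAut.conj y).toMonoidHom : Set G) :=
    fun y hy => le_normalizer_map_conj hHE (hYH hy)
  generalize ⁅N, A⁆ ⊔ A = E at *
  set C := V ⊓ centralizer (E : Set G) with hC
  set F := H ⊓ centralizer ((⁅V, E⁆ : Subgroup G) : Set G) with hF
  set U := ⨆ y : Y, ⁅V, E.map (MulAut.conj (y : G)).toMonoidHom⁆ with hU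
  have hVE : ⁅V, E⁆ ≤ V := commutator_le_of_le_normalizer (hEH.trans h.norm)
  have hUV : U ≤ V := iSup_le fun y => commutator_le_of_le_normalizer
    ((map_conj_le_of_mem_normalizer hEH (hYH y.2)).trans h.norm)
  have hHU : H ≤ normalizer (U : Set G) := le_normalizer_iSup' fun y =>
    (le_inf h.norm (hHE' y y.2)).trans (normalizer_inf_normalizer_le_normalizer_commutator _ _)
  have hHC : H ≤ normalizer (C : Set G) := le_normalizer_inf h.norm (le_normalizer_centralizer hHE)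
  have hmemU : ∀ y ∈ Y, ∀ w ∈ ⁅V, E⁆, y * w * y⁻¹ ∈ U := fun y hy w hw =>
    mem_iSup_of_mem ⟨y, hy⟩ (by rw [commutator_map_conj _ (hYV hy)]; exact ⟨w, hw, rfl⟩)
  set W := U ⊓ centralizer (Y : Set G) with hW
  have hWC : W ⊓ C = ⊥ := by
    set M := ⨆ y : Y, (N ⊓ E).map (MulAut.conj (y : G)).toMonoidHom with hM
    have hMN : M ≤ N := iSup_le fun y => map_conj_le_of_mem_normalizer inf_le_left (hYN y.2)
    have h1 : ⁅V, M⁆ ⊓ centralizer (M : Set G) = ⊥ := by
      refine commutator_inf_centralizer_eq_bot_of_comm (hMN.trans (h.le.trans h.norm)) ?_ h.ea.1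
      obtain ⟨n, hn⟩ := (ea_isPGroup h.ea).exists_card_eq
      rw [hn]
      exact (coprime_card_of_le hMN h.cop).pow_right n
    rw [eq_bot_iff, ← h1]
    refine le_inf (inf_le_left.trans (inf_le_left.trans (iSup_le fun y => ?_))) ?_
    · rw [commutator_map_conj _ (hYV y.2)]
      refine (map_mono hle).trans ?_
      rw [← commutator_map_conj _ (hYV y.2)]
      exact commutator_mono le_rfl
        (le_iSup (fun y : Y => (N ⊓ E).map (MulAut.conj (y : G)).toMonoidHom) y)
    · rw [le_centralizer_iff]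
      refine iSup_le fun y => ?_
      rintro _ ⟨x, hx, rfl⟩ w hw
      have h2 : (y : G) * w = w * y := hw.1.2 y y.2
      have h3 : x * w = w * x := hw.2.2 x hx.2
      change w * (y * x * (y : G)⁻¹) = y * x * (y : G)⁻¹ * w
      rw [← mul_assoc, ← mul_assoc, ← h2, mul_assoc (y : G) w, ← h3, ← mul_assoc, mul_assoc _ w,
        mul_assoc _ (y : G)⁻¹, eq_inv_mul_iff_mul_eq.mpr (by rw [← mul_assoc, h2, mul_assoc,
          mul_inv_cancel, mul_one] : (y : G) * (w * (y : G)⁻¹) = w)]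
  have hsurj : ∀ w ∈ ⁅V, E⁆, ∃ c ∈ C, w * c ∈ W := by
    intro w hw
    obtain ⟨c, hc, h1⟩ := exists_mul_mem_centralizer_of_orbit (X := Y) (F := U ⊓ C) (e := w)
      (fun y hy => ea_comm h.ea (hVE hw) (hUV (hmemU y hy w hw)))
      (fun y hy => (hdich y hy).imp (fun h1 => mul_inv_eq_iff_eq_mul.mpr (h1.1 w hw).symm)
        (fun h1 => ⟨hmemU y hy w hw, hUV (hmemU y hy w hw), h1.2 ⟨w, hw, rfl⟩⟩))
    exact ⟨c, hc.2, mem_inf.mpr ⟨mul_mem (by simpa using hmemU 1 (one_mem _) w hw) hc.1, h1⟩⟩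
  have hWV : W ≤ V := inf_le_left.trans hUV
  have hDW : H ⊓ centralizer (Y : Set G) ≤ normalizer (W : Set G) :=
    le_normalizer_inf (inf_le_left.trans hHU) (inf_le_right.trans le_normalizer)
  have hiff : ∀ d ∈ H ⊓ centralizer (Y : Set G), d ∈ F ↔ d ∈ centralizer (W : Set G) := by
    intro d hd
    constructor
    · intro hdF w hw
      obtain ⟨v, hv, c, hc, rfl⟩ :=
        (mem_sup_of_le_normalizer_right (hVE.trans (ea_le_normalizer h.ea inf_le_left))).mp
          (hs.ge (hWV hw))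
      have h1 : (v * c)⁻¹ * (d * (v * c) * d⁻¹) ∈ W ⊓ C := by
        refine mem_inf.mpr ⟨mul_mem (inv_mem hw) (conj_mem_of_mem_normalizer (hDW hd) hw), ?_⟩
        have := mul_mem (inv_mem hc) (conj_mem_of_mem_normalizer (hHC hd.1) hc)
        have h2 : v * d = d * v := hdF.2 v hv
        rwa [show (v * c)⁻¹ * (d * (v * c) * d⁻¹) = c⁻¹ * (d * c * d⁻¹) by
          rw [← mul_assoc d, ← h2]; group]
      rw [hWC, mem_bot, inv_mul_eq_one, eq_mul_inv_iff_mul_eq] at h1
      exact h1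
    · intro hdW
      refine ⟨hd.1, fun v hv => ?_⟩
      obtain ⟨c, hc, h1⟩ := hsurj v hv
      have h2 : v * c * d = d * (v * c) := hdW _ h1
      have h3 : v⁻¹ * (d * v * d⁻¹) ∈ ⁅V, E⁆ ⊓ C := by
        refine mem_inf.mpr ⟨mul_mem (inv_mem hv) (conj_mem_of_mem_normalizer
          (normalizer_inf_normalizer_le_normalizer_commutator _ _ ⟨h.norm hd.1, hHE hd.1⟩) hv), ?_⟩
        have := mul_mem hc (inv_mem (conj_mem_of_mem_normalizer (hHC hd.1) hc))
        rwa [show v⁻¹ * (d * v * d⁻¹) = c * (d * c * d⁻¹)⁻¹ by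
          calc _ = v⁻¹ * (d * (v * c)) * d⁻¹ * (d * c * d⁻¹)⁻¹ := by group
            _ = _ := by rw [← h2]; group]
      rw [hi, mem_bot, inv_mul_eq_one, eq_mul_inv_iff_mul_eq] at h3
      exact h3
  refine ⟨W, le_inf hWV inf_le_right, ?_, hDW, ?_⟩
  · have h1 : W ⊔ C = V := by
      refine le_antisymm (sup_le hWV inf_le_left) (hs.ge.trans (sup_le (fun w hw => ?_) le_sup_right))
      obtain ⟨c, hc, h1⟩ := hsurj w hw
      simpa using mul_mem (mem_sup_left h1) (mem_sup_right (inv_mem hc))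
    have h2 := card_sup_mul_card_inf (hWV.trans (ea_le_normalizer h.ea (inf_le_left : C ≤ V)))
    have h3 := card_sup_mul_card_inf (hVE.trans (ea_le_normalizer h.ea (inf_le_left : C ≤ V)))
    rw [h1, hWC] at h2
    rw [hs, hi, h2, hcard] at h3
    exact Nat.eq_of_mul_eq_mul_right Nat.card_pos h3
  · have hFH : F ≤ H := inf_le_left
    have hn : (F.subgroupOf H).Normal := normal_subgroupOf_of_le_normalizer (by
      conv_lhs => rw [← hEF'']
      exact sup_le (le_normalizer_of_commutator_eq_bot hEF) le_normalizer)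
    have hc : (E.subgroupOf H).IsComplement' (F.subgroupOf H) := by
      refine isComplement'_of_disjoint_and_mul_eq_univ ?_ ?_
      · rw [disjoint_iff]
        exact (congrArg (subgroupOf · H) hEF').trans (bot_subgroupOf H)
      · rw [← Subgroup.mul_normal, ← subgroupOf_sup hEH hFH, hEF'', subgroupOf_self, coe_top]
    let ψ₀ : H ⧸ F.subgroupOf H ≃* SL(2, ZMod p) :=
      hc.QuotientMulEquiv.trans ((subgroupOfEquivOfLe hEH).trans iso)
    refine ⟨ψ₀.toMonoidHom.comp ((QuotientGroup.mk' _).comp (inclusion inf_le_left)),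
      ψ₀.surjective.comp fun x => ?_, fun d => ?_⟩
    · obtain ⟨⟨x, hx⟩, rfl⟩ := QuotientGroup.mk_surjective x
      obtain ⟨e, he, f, hf, rfl⟩ := (mem_sup_of_commutator_eq_bot hEF).mp (hEF''.ge hx)
      obtain ⟨f', hf', hd⟩ := hdiag e he
      refine ⟨⟨e * f', mul_mem (hEH he) hf'.1, hd⟩, QuotientGroup.eq.mpr ?_⟩
      simpa [mem_subgroupOf, mul_assoc] using mul_mem (inv_mem hf') hf
    · rw [← hiff d d.2]
      exact (map_eq_one_iff _ ψ₀.injective).trans (QuotientGroup.eq_one_iff _)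

end FFSetup

section Operator
variable {K : Type*} [Group K] [Finite G] [hp : Fact p.Prime] {q : ℕ} [hq : Fact q.Prime]
  (j : K →* G) (hj : Function.Injective j) (hjn : j.range.Normal) {X : Subgroup G}
  (hX : IsElementaryAbelian q X) (hqK : ¬ q ∣ Nat.card K) (hsep : IsPSolvable p K)
  {V : Subgroup K} [V.Characteristic] (hV : IsElementaryAbelian p V)
  (hO : pCore p (K ⧸ centralizer (V : Set K)) = ⊥)

omit [Finite G] in
include hj hjn in
theorem normal_map_of_characteristic (U : Subgroup K) [hU : U.Characteristic] :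
    (U.map j).Normal := by
  let e := MonoidHom.ofInjective hj
  have h1 : (U.map e.toMonoidHom).Characteristic := by
    rw [characteristic_iff_map_eq]
    intro φ
    have := characteristic_iff_map_eq.mp hU ((e.trans φ).trans e.symm)
    conv_rhs => rw [← this]
    rw [map_map, map_map]
    congr 1
    ext x
    simp
  have h2 := ConjAct.normal_of_characteristic_of_normal (H := j.range) (K := U.map e.toMonoidHom)
  rwa [map_map] at h2

include hj hjn hX hqK hsep hV hO in
theorem thompson_coprime_operator :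
    (∀ S : Sylow p K, thompsonSubgroup p K ≤
      (S : Subgroup K) ⊔ (centralizer (X : Set G)).comap j ⊔ centralizer (V : Set K)) ∧
    (¬ thompsonSubgroup p K ≤ centralizer (V : Set K) → (p = 2 ∨ p = 3) ∧ ∃ W D : Subgroup K,
      W ≤ (centralizer (X : Set G)).comap j ∧ D ≤ (centralizer (X : Set G)).comap j ∧
      IsElementaryAbelian p W ∧ Nat.card W = p ^ 2 ∧ D ≤ normalizer (W : Set K) ∧
      ∃ ψ : D →* SL(2, ZMod p), Function.Surjective ψ ∧
        ∀ d, ψ d = 1 ↔ (d : K) ∈ centralizer (W : Set K)) := by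
  have : Finite K := Finite.of_injective j hj
  have := normal_map_of_characteristic j hj hjn V
  have := normal_map_of_characteristic j hj hjn (thompsonSubgroup p K)
  obtain ⟨Γ, _, _, ⟨h₀⟩⟩ := exists_holo (V.map j)
  set h := h₀.comp j hj with hh
  have hθ : h.θ = h₀.θ.comp j := rfl
  have hr : h.ι.range = h₀.ι.range := by
    apply le_antisymm
    · rintro _ ⟨v, rfl⟩
      exact ⟨_, rfl⟩
    · rintro _ ⟨v, rfl⟩
      obtain ⟨w, rfl⟩ := (V.equivMapOfInjective j hj).surjective v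
      exact ⟨w, rfl⟩
  have hf := h.ffSetup hV hsep hO (thompsonSubgroup p K)
  have hS3 := h.map_thompson_eq_iSup hV
  set J := thompsonSubgroup p K
  have hY : ∀ y ∈ X.map h₀.θ, y ^ q = 1 := (ea_map _ hX).2
  have hqH : ¬ q ∣ Nat.card (J.map h.θ) := fun hd =>
    hqK (hd.trans ((card_map_dvd _ _).trans (card_subgroup_dvd_card _)))
  have hYV : X.map h₀.θ ≤ normalizer (h.ι.range : Set Γ) := hr ▸ h₀.map_le_normalizer X
  have hYH : X.map h₀.θ ≤ normalizer (J.map h.θ : Set Γ) := by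
    rw [hθ, ← map_map]
    exact (map_mono le_normalizer_of_normal).trans (le_normalizer_map _)
  have hYN := hYH.trans (normalizer_le_normalizer_pPrimeCoreOf (p := p) _)
  have hD : J.map h.θ ⊓ centralizer (X.map h₀.θ : Set Γ) =
      (J ⊓ (centralizer (X : Set G)).comap j).map h.θ := by
    have h1 : CoprimeAct X (J.map j) := CoprimeAct.of_isPGroup (ea_isPGroup hX)
      (fun hd => hqK (hd.trans ((card_map_dvd _ _).trans (card_subgroup_dvd_card _))))
      le_normalizer_of_normal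
    rw [hθ, ← map_map, ← map_map, h1.map_inf_centralizer']
    congr 1
    apply le_antisymm
    · rintro _ ⟨⟨x, hx, rfl⟩, hc⟩
      exact ⟨x, ⟨hx, hc⟩, rfl⟩
    · rintro _ ⟨x, hx, rfl⟩
      exact ⟨⟨x, hx.1, rfl⟩, hx.2⟩
  refine ⟨fun S => ?_, fun hJ => ?_⟩
  · have h1 := hf.le_sylow_sup_centralizer hY hqH hYV hYH hYN hS3
      (((IsSylowIn.of_sylow_top S).inf_of_le_normalizer le_top le_normalizer_of_normal).map h.θ)
    rw [hD, ← Subgroup.map_sup, Subgroup.map_le_map_iff, h.ker] at h1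
    exact h1.trans (sup_le_sup_right (sup_le_sup inf_le_left inf_le_right) _)
  · obtain ⟨A, hA⟩ := hf.exists_minOff hS3 (by rwa [Ne, Subgroup.map_eq_bot_iff, h.ker])
    obtain ⟨W, h1, h2, h3, ψ, h4, h5⟩ := hf.exists_fixed_plane hY hqH hYV hYH hYN hS3 hA
    refine ⟨(hf.plane hA).1, (W.comap h.ι).map V.subtype, J ⊓ (centralizer (X : Set G)).comap j,
      ?_, inf_le_right, ea_mono hV (map_subtype_le _), ?_, ?_,
      ψ.comp ((MulEquiv.subgroupCongr hD.symm).toMonoidHom.comp (h.θ.subgroupMap _)),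
      h4.comp ((MulEquiv.subgroupCongr hD.symm).surjective.comp (h.θ.subgroupMap_surjective _)),
      fun d => (h5 _).trans ?_⟩
    · rintro _ ⟨v, hv, rfl⟩ x hx
      exact (h₀.comm_iff x (V.equivMapOfInjective j hj v)).mp ((h1 hv).2 _ ⟨x, hx, rfl⟩)
    · rw [card_map_subtype, ← card_map_of_injective h.inj,
        map_comap_eq_self (h1.trans inf_le_left), h2]
    · refine le_normalizer_iff.mpr ?_
      rintro d hd _ ⟨v, hv, rfl⟩
      refine ⟨⟨d * v * d⁻¹, Normal.conj_mem inferInstance _ v.2 d⟩, ?_, rfl⟩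
      have := conj_mem_of_mem_normalizer (h3 (hD.ge ⟨d, hd, rfl⟩)) hv
      rwa [h.conj'] at this
    · constructor
      · rintro hd _ ⟨v, hv, rfl⟩
        exact ((h.comm_iff d v).mp (hd _ hv).symm).symm
      · intro hd w hw
        obtain ⟨v, rfl⟩ := (h1 hw).1
        exact ((h.comm_iff d v).mpr (hd _ ⟨v, hw, rfl⟩).symm).symm

end Operator

instance omegaZ_characteristic [Finite G] [Fact p.Prime] : (omegaZ p G).Characteristic := by
  rw [characteristic_iff_map_le]
  intro φ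
  rw [Subgroup.map_iSup]
  refine iSup_le fun S => ?_
  rw [map_omegaOne_center _ (inf_ker_eq_bot_of_injective _ φ.injective)]
  exact omegaOne_center_le_omegaZ (S.mapSurjective (f := φ.toMonoidHom) φ.surjective)

theorem thompson_coprime_operator' [Finite G] [hp : Fact p.Prime] {q : ℕ} [hq : Fact q.Prime]
    {K X : Subgroup G} (hXK : X ≤ normalizer (K : Set G)) (hX : IsElementaryAbelian q X)
    (hqK : ¬ q ∣ Nat.card K) (hsep : IsPSolvable p K) (hO : pPrimeCore p K = ⊥) :
    (∀ S : Sylow p K, thompsonSubgroup p K ≤ (S : Subgroup K) ⊔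
      (centralizer (X : Set G)).subgroupOf K ⊔ centralizer (omegaZ p K : Set K)) ∧
    (¬ thompsonSubgroup p K ≤ centralizer (omegaZ p K : Set K) → (p = 2 ∨ p = 3) ∧
      ∃ W D : Subgroup K, W ≤ (centralizer (X : Set G)).subgroupOf K ∧
      D ≤ (centralizer (X : Set G)).subgroupOf K ∧
      IsElementaryAbelian p W ∧ Nat.card W = p ^ 2 ∧ D ≤ normalizer (W : Set K) ∧
      ∃ ψ : D →* SL(2, ZMod p), Function.Surjective ψ ∧
        ∀ d, ψ d = 1 ↔ (d : K) ∈ centralizer (W : Set K)) := by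
  have h := thompson_coprime_operator (inclusion (le_normalizer (H := K))) (inclusion_injective _)
    (by rw [inclusion_range]; infer_instance) (ea_subgroupOf hX _) hqK hsep
    (ea_omegaZ_of_char (centralizer_pCore_le_of_isPSolvable hsep hO))
    pCore_quotient_centralizer_omegaZ
  have e : (centralizer (X.subgroupOf (normalizer (K : Set G)) : Set (normalizer (K : Set G)))).comap
      (inclusion (le_normalizer (H := K))) = (centralizer (X : Set G)).subgroupOf K := by
    ext k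
    exact ⟨fun hk x hx => congrArg Subtype.val (hk ⟨x, hXK hx⟩ hx),
      fun hk x hx => Subtype.ext (hk x hx)⟩
  rwa [e] at h

end Cfsg.Lib.Quad
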