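import Cfsg.Agent.Lib.Quad.ActStab
import Cfsg.Agent.Lib.Transfer.Basic

/-!
# Thompson's normal `p`-complement theorem in functor form
-/

set_option autoImplicit false

namespace Cfsg.Lib.Quad
open Subgroup Cfsg.Lib
open scoped commutatorElement

universe u

/-- A conjugacy functor on `p`-subgroups, compatible with homomorphisms injective on them. -/
structure PFunctor' (p : ℕ) (W : ∀ (Q : Type u) [Group Q], Subgroup Q → Subgroup Q) : Prop where
  le : ∀ (Q : Type u) [Group Q] (P : Subgroup Q), W Q P ≤ P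
  ne_bot : ∀ (Q : Type u) [Group Q] [Finite Q] (P : Subgroup Q), IsPGroup p P → P ≠ ⊥ → W Q P ≠ ⊥
  map : ∀ (Q Q' : Type u) [Group Q] [Group Q'] [Finite Q] (f : Q →* Q') (P : Subgroup Q),
    IsPGroup p P → P ⊓ f.ker = ⊥ → (W Q P).map f = W Q' (P.map f)

variable {p : ℕ} [hp : Fact p.Prime] {W : ∀ (Q : Type u) [Group Q], Subgroup Q → Subgroup Q}

theorem isPSolvable_of_hasNormalPComplement_quotient {G : Type*} [Group G] [Finite G]
    (h : HasNormalPComplement p (G ⧸ pCore p G)) : IsPSolvable p G := by
  obtain ⟨K, hK, h1, h2⟩ := hasNormalPComplement_iff_exists.mp h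
  set π := QuotientGroup.mk' (pCore p G)
  have hπ : Function.Surjective π := QuotientGroup.mk'_surjective _
  have hle : pCore p G ≤ K.comap π := by
    have := ker_le_comap π K
    rwa [QuotientGroup.ker_mk'] at this
  refine ⟨3, ![⊥, pCore p G, K.comap π, ⊤], rfl, rfl, ?_, ?_, ?_⟩
  · refine Fin.monotone_iff_le_succ.mpr fun i => ?_
    fin_cases i
    · exact bot_le
    · exact hle
    · exact le_top
  · intro i
    fin_cases i
    · exact (inferInstance : (⊥ : Subgroup G).Normal)
    · exact (inferInstance : (pCore p G).Normal)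
    · exact (inferInstance : (K.comap π).Normal)
    · exact (inferInstance : (⊤ : Subgroup G).Normal)
  · intro i
    fin_cases i
    · left
      obtain ⟨m, hm⟩ := (isPGroup_pCore (p := p) (G := G)).exists_card_eq
      exact ⟨m, by simpa using hm⟩
    · right
      have : (pCore p G).relIndex (K.comap π) = Nat.card K := by
        have := relIndex_ker (K.comap π) π
        rwa [map_comap_eq_self_of_surjective hπ, QuotientGroup.ker_mk'] at this
      simpa [this] using ((Nat.Prime.coprime_iff_not_dvd hp.out).mpr h1).symm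
    · left
      obtain ⟨m, hm⟩ := h2.exists_card_eq
      exact ⟨m, by simpa [index_comap_of_surjective _ hπ, index_eq_card] using hm⟩

theorem PFunctor'.npc_conj (hW : PFunctor' p W) {G : Type u} [Group G] [Finite G] (S S' : Sylow p G)
    (h : HasNormalPComplement p (normalizer (W G S : Set G))) :
    HasNormalPComplement p (normalizer (W G S' : Set G)) := by
  obtain ⟨g, -, hg⟩ := (IsSylowIn.of_sylow_top S).exists_conj (IsSylowIn.of_sylow_top S')
  rw [← hg, ← hW.map _ _ _ _ S.isPGroup' (inf_ker_eq_bot_of_injective _ (MulAut.conj g).injective),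
    normalizer_map_conj]
  exact h.of_surjective _ (MonoidHom.subgroupMap_surjective _ _)

theorem PFunctor'.npc_subgroup (hW : PFunctor' p W) {G : Type u} [Group G] [Finite G]
    {K T : Subgroup G} (hT : IsSylowIn p T K)
    (h : HasNormalPComplement p (normalizer (W G T : Set G))) :
    ∃ S : Sylow p K, HasNormalPComplement p (normalizer (W K S : Set K)) := by
  obtain ⟨S, rfl⟩ := hT.exists_sylow
  refine ⟨S, ?_⟩
  rw [← hW.map _ _ _ _ S.isPGroup' (inf_ker_eq_bot_of_injective _ K.subtype_injective)] at h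
  exact (h.to_le (le_normalizer_map K.subtype)).of_injective
    (equivMapOfInjective _ _ K.subtype_injective).toMonoidHom (MulEquiv.injective _)

theorem PFunctor'.normalizer_le (hW : PFunctor' p W) {G : Type u} [Group G] [Finite G]
    {T : Subgroup G} (hT : IsPGroup p T) : normalizer (T : Set G) ≤ normalizer (W G T : Set G) := by
  intro g hg
  refine mem_normalizer_of_map_conj_eq ?_
  rw [hW.map _ _ _ _ hT (inf_ker_eq_bot_of_injective _ (MulAut.conj g).injective),
    map_conj_eq_of_mem_normalizer hg]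

/-- The last step: a group of characteristic `p` all of whose proper overgroups of `S` have normal
`p`-complements, with a normal `p`-complement modulo `O_p`, has abelian Sylow `2`-subgroups. -/
theorem sylow_two_comm_of_minimal {G : Type*} [Group G] [Finite G] (h2 : p ≠ 2) (S : Sylow p G)
    (hc : centralizer (pCore p G : Set G) ≤ pCore p G)
    (hq : HasNormalPComplement p (G ⧸ pCore p G))
    (hK : ∀ K : Subgroup G, (S : Subgroup G) ≤ K → K ≠ ⊤ → HasNormalPComplement p K)
    (T : Sylow 2 G) : IsMulCommutative T := by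
  obtain ⟨K, hKn, h1, h3⟩ := hasNormalPComplement_iff_exists.mp hq
  set π := QuotientGroup.mk' (pCore p G)
  have hπ : Function.Surjective π := QuotientGroup.mk'_surjective _
  have hO : pCore p G ≤ S := pCore_le_sylow S
  obtain ⟨Z, hZK, hZc, hZn, hZt⟩ : ∃ Z : Subgroup (G ⧸ pCore p G), Z ≤ K ∧ IsMulCommutative Z ∧
      (S : Subgroup G).map π ≤ normalizer (Z : Set (G ⧸ pCore p G)) ∧
      (S : Subgroup G).map π ⊔ Z = ⊤ := by
    by_cases hK1 : K = ⊥
    · refine ⟨⊥, bot_le, inferInstance, le_normalizer_of_normal, ?_⟩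
      have h4 : IsPGroup p (G ⧸ pCore p G) := by
        subst hK1
        exact h3.of_equiv QuotientGroup.quotientBot
      rw [sup_bot_eq]
      exact ((S.mapSurjective hπ).is_maximal' (h4.to_subgroup ⊤) le_top).symm
    obtain ⟨q, hq, hqd⟩ := Nat.exists_prime_and_dvd (mt card_eq_one.mp hK1)
    have := Fact.mk hq
    obtain ⟨Q, hQ, hQn⟩ := (CoprimeAct.of_isPGroup (S.isPGroup'.map π) h1
      le_normalizer_of_normal).exists_isSylowIn q
    have hn : (S : Subgroup G).map π ≤
        normalizer ((Q ⊓ centralizer (Q : Set (G ⧸ pCore p G)) : Subgroup _) : Set _) :=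
      le_normalizer_inf hQn (le_normalizer_centralizer hQn)
    refine ⟨Q ⊓ centralizer (Q : Set (G ⧸ pCore p G)), inf_le_left.trans hQ.le,
      isMulCommutative_inf_centralizer Q, hn, ?_⟩
    by_contra hne
    set U := ((S : Subgroup G).map π ⊔ (Q ⊓ centralizer (Q : Set (G ⧸ pCore p G)))).comap π with hU
    have hSU : (S : Subgroup G) ≤ U := map_le_iff_le_comap.mp le_sup_left
    have h5 := hK U hSU (fun h => hne (by
      rw [← map_comap_eq_self_of_surjective hπ (_ ⊔ _), ← hU, h, map_top_of_surjective _ hπ]))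
    have := (nontrivial_iff_ne_bot Q).mpr (hQ.ne_bot hqd)
    have := hQ.isPGroup.center_nontrivial
    have h6 : q ∣ Nat.card (center Q) :=
      ((hQ.isPGroup.to_subgroup (center Q)).card_eq_or_dvd).resolve_left
        (Finite.one_lt_card).ne'
    obtain ⟨z, hz⟩ := exists_prime_orderOf_dvd_card' q h6
    have hz' : orderOf ((z : Q) : G ⧸ pCore p G) = q := by rw [orderOf_coe, orderOf_coe, hz]
    have hqp : q.Coprime p := by
      rw [Nat.coprime_primes hq hp.out]
      rintro rfl
      exact h1 hqd
    obtain ⟨y, hy⟩ := hπ ((z : Q) : G ⧸ pCore p G)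
    obtain ⟨k, hk⟩ := exists_pow_coprime_orderOf (p := p) y
    have hyU : y ∈ U := by
      rw [hU, mem_comap, hy]
      exact mem_sup_right ⟨z.1.2, fun w hw =>
        congrArg Subtype.val (Subgroup.mem_center_iff.mp z.2 ⟨w, hw⟩)⟩
    have h7 : (⟨y ^ p ^ k, pow_mem hyU _⟩ : U) ∈
        centralizer ((pCore p G).subgroupOf U : Set U) :=
      h5.mem_centralizer isPGroup_pCore.comap_subtype (le_normalizer_of_normal (mem_top _))
        (by rwa [← orderOf_coe])
    have h8 : y ^ p ^ k ∈ pCore p G := hc fun w hw =>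
      congrArg Subtype.val (h7 ⟨w, hSU (hO hw)⟩ hw)
    have h9 : ((z : Q) : G ⧸ pCore p G) ^ p ^ k = 1 := by
      rw [← hy, ← map_pow]; exact (QuotientGroup.eq_one_iff _).mpr h8
    have h10 := orderOf_dvd_of_pow_eq_one h9
    rw [hz'] at h10
    exact hq.one_lt.ne' (Nat.eq_one_of_dvd_coprimes (hqp.pow_right k) dvd_rfl h10)
  have hZN : Z.Normal := by
    rw [← normalizer_eq_top_iff, eq_top_iff, ← hZt]; exact sup_le hZn le_normalizer
  have hpq : IsPGroup p ((G ⧸ pCore p G) ⧸ Z) := by
    have h4 := (S.isPGroup'.map π).map (QuotientGroup.mk' Z)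
    have h5 : ((S : Subgroup G).map π).map (QuotientGroup.mk' Z) = ⊤ := by
      have := congrArg (Subgroup.map (QuotientGroup.mk' Z)) hZt
      rwa [Subgroup.map_sup, QuotientGroup.map_mk'_self, sup_bot_eq,
        map_top_of_surjective _ (QuotientGroup.mk'_surjective _)] at this
    rw [h5] at h4
    exact h4.of_equiv topEquiv
  have hcop : (Nat.card (T : Subgroup G)).Coprime p := by
    obtain ⟨n, hn⟩ := T.isPGroup'.exists_card_eq
    rw [hn]
    exact ((Nat.coprime_primes Nat.prime_two hp.out).mpr h2.symm).pow_left n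
  have hTZ : (T : Subgroup G).map π ≤ Z := by
    rw [← QuotientGroup.ker_mk' Z, ← Subgroup.map_eq_bot_iff]
    exact eq_bot_of_isPGroup_of_coprime (hpq.to_subgroup _)
      (hcop.coprime_dvd_left ((card_map_dvd _ _).trans (card_map_dvd _ _)))
  refine isMulCommutative_of_forall fun a ha b hb => ?_
  have h4 : ⁅a, b⁆ ∈ pCore p G ⊓ T := by
    refine ⟨(QuotientGroup.eq_one_iff _).mp ?_, ?_⟩
    · change π _ = 1
      rw [map_commutatorElement, commutatorElement_eq_one_iff_mul_comm]
      exact comm_of_isMulCommutative hZc (hTZ (mem_map_of_mem π ha)) (hTZ (mem_map_of_mem π hb))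
    · exact (T : Subgroup G).mul_mem (mul_mem (mul_mem ha hb) (inv_mem ha)) (inv_mem hb)
  rwa [inf_eq_bot_of_isPGroup_of_coprime isPGroup_pCore hcop, mem_bot,
    commutatorElement_eq_one_iff_mul_comm] at h4

/-- **Thompson's normal `p`-complement theorem**, functor form, `p` odd. -/
theorem PFunctor'.hasNormalPComplement (hW : PFunctor' p W) (h2 : p ≠ 2)
    (hloc : ∀ (Q : Type u) [Group Q] [Finite Q], centralizer (pCore p Q : Set Q) ≤ pCore p Q →
      IsPSolvable p Q → (∀ T : Sylow 2 Q, IsMulCommutative T) → ∀ S : Sylow p Q, (W Q S).Normal)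
    {G : Type u} [Group G] [Finite G] (S : Sylow p G)
    (hN : HasNormalPComplement p (normalizer (W G S : Set G))) : HasNormalPComplement p G := by
  induction hn : Nat.card G using Nat.strong_induction_on generalizing G with
  | _ n ih =>
  have ihK : ∀ {K T : Subgroup G}, K ≠ ⊤ → IsSylowIn p T K →
      HasNormalPComplement p (normalizer (W G T : Set G)) → HasNormalPComplement p K := by
    intro K T hK hT h
    obtain ⟨S', hS'⟩ := hW.npc_subgroup hT h
    refine ih _ ?_ S' hS' rfl
    rw [← hn, ← card_top (G := G)]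
    exact card_lt_of_lt (lt_top_iff_ne_top.mpr hK)
  have ihQ : ∀ (N : Subgroup G) [N.Normal], N ≠ ⊥ → ∀ S' : Sylow p (G ⧸ N),
      HasNormalPComplement p (normalizer (W (G ⧸ N) S' : Set (G ⧸ N))) →
        HasNormalPComplement p (G ⧸ N) := by
    intro N _ hN S' h
    refine ih _ ?_ S' h rfl
    rw [← hn, card_eq_card_quotient_mul_card_subgroup N]
    exact lt_mul_of_one_lt_right Nat.card_pos ((one_lt_card_iff_ne_bot _).mpr hN)
  by_contra hG
  -- step 1: `O_p(G) ≠ 1`
  have hO : pCore p G ≠ ⊥ := by
    have hex : ∃ X : Subgroup G × Subgroup G, IsPGroup p X.1 ∧ X.1 ≠ ⊥ ∧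
        ¬ HasNormalPComplement p (normalizer (X.1 : Set G)) ∧ IsPGroup p X.2 ∧
          X.2 ≤ normalizer (X.1 : Set G) := by
      by_contra hcon
      push Not at hcon
      refine hG (frobenius_normal_complement_of_normalizers S fun Q hQ hQ1 => ?_)
      by_contra h
      exact hcon (Q, ⊥) (S.isPGroup'.to_le hQ) hQ1 h IsPGroup.of_bot bot_le
    obtain ⟨⟨X, T⟩, ⟨hX, hX1, hXn, hT, hTX⟩, hmax⟩ := Set.exists_max_image _
      (fun X : Subgroup G × Subgroup G => Nat.card X.2) (Set.toFinite _) hex
    dsimp only at hX hX1 hXn hT hTX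
    have hTs : IsSylowIn p T (normalizer (X : Set G)) := ⟨hTX, hT, fun R hR hRX hle =>
      (eq_of_le_of_card_ge hle (hmax (X, R) ⟨hX, hX1, hXn, hR, hRX⟩)).symm⟩
    have hXT : X ≤ T := hTs.le_of_normalizes hX le_normalizer hTX
    have hT1 : T ≠ ⊥ := fun h => hX1 (le_bot_iff.mp (h ▸ hXT))
    have hXG : normalizer (X : Set G) = ⊤ := by
      by_contra hne
      refine hXn (ihK hne hTs ?_)
      obtain ⟨S', hS'⟩ := hT.exists_le_sylow
      rcases hS'.eq_or_lt with h | h
      · rw [h]; exact hW.npc_conj S S' hN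
      · by_contra hcon
        obtain ⟨x, hxS, hxn, hxT⟩ := exists_mem_normalizer_not_mem_of_lt_pgroup S'.isPGroup' h
        have h3 := hmax (W G T, (S' : Subgroup G) ⊓ normalizer (T : Set G))
          ⟨hT.to_le (hW.le _ _), hW.ne_bot _ _ hT hT1, hcon, S'.isPGroup'.to_inf_left,
            inf_le_right.trans (hW.normalizer_le hT)⟩
        have h4 := eq_of_le_of_card_ge (le_inf hS' le_normalizer) h3
        exact hxT (h4 ▸ mem_inf.mpr ⟨hxS, hxn⟩)
    exact fun h => hX1 (le_bot_iff.mp (h ▸ le_pCore (normalizer_eq_top_iff.mp hXG) hX))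
  -- step 2: `O_{p'}(G) = 1`
  have hO' : pPrimeCore p G = ⊥ := by
    by_contra hne
    set f := QuotientGroup.mk' (pPrimeCore p G) with hf
    have hs : Function.Surjective f := QuotientGroup.mk'_surjective _
    have hk : (Nat.card f.ker).Coprime p := by
      rw [hf, QuotientGroup.ker_mk']; exact coprime_card_pPrimeCore
    refine hG (hasNormalPComplement_of_quotient _ not_dvd_card_pPrimeCore
      (ihQ _ hne (S.mapSurjective hs) ?_))
    rw [Sylow.coe_mapSurjective,
      ← hW.map _ _ f _ S.isPGroup' (inf_ker_eq_bot_of_coprime f hk S.isPGroup'),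
      ← map_normalizer_of_coprime f hs hk (S.isPGroup'.to_le (hW.le _ _))]
    exact hN.of_surjective _ (MonoidHom.subgroupMap_surjective _ _)
  have hK : ∀ K : Subgroup G, (S : Subgroup G) ≤ K → K ≠ ⊤ → HasNormalPComplement p K :=
    fun K hSK hK => ihK hK (IsSylowIn.of_sylow_le S hSK) hN
  -- step 3: `G / O_p(G)` has a normal `p`-complement
  have hq : HasNormalPComplement p (G ⧸ pCore p G) := by
    set π := QuotientGroup.mk' (pCore p G)
    have hπ : Function.Surjective π := QuotientGroup.mk'_surjective _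
    by_cases h1 : (S : Subgroup G).map π = ⊥
    · have h3 := (S.mapSurjective hπ).not_dvd_index
      rw [Sylow.coe_mapSurjective, h1, index_bot] at h3
      exact hasNormalPComplement_of_not_dvd h3
    refine ihQ _ hO (S.mapSurjective hπ) ?_
    rw [Sylow.coe_mapSurjective]
    set N := normalizer (W (G ⧸ pCore p G) ((S : Subgroup G).map π) : Set (G ⧸ pCore p G))
    have h3 : N ≠ ⊤ := fun h => hW.ne_bot _ _ (S.isPGroup'.map π) h1 (le_bot_iff.mp
      (pCore_quotient_pCore (p := p) (G := G) ▸ le_pCore (normalizer_eq_top_iff.mp h)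
        ((S.isPGroup'.map π).to_le (hW.le _ _))))
    have h4 := hK (N.comap π) (map_le_iff_le_comap.mp
      (le_normalizer.trans (hW.normalizer_le (S.isPGroup'.map π)))) (fun h => h3 (by
        rw [← map_comap_eq_self_of_surjective hπ N, h, map_top_of_surjective _ hπ]))
    rw [← map_comap_eq_self_of_surjective hπ N]
    exact h4.of_surjective _ (MonoidHom.subgroupMap_surjective _ _)
  have hsol := isPSolvable_of_hasNormalPComplement_quotient hq
  have hc := centralizer_pCore_le_of_isPSolvable hsol hO'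
  have h5 := hloc G hc hsol (sylow_two_comm_of_minimal h2 S hc hq hK) S
  exact hG (hN.of_surjective (Subgroup.subtype _) fun g =>
    ⟨⟨g, by rw [normalizer_eq_top_iff.mpr h5]; trivial⟩, rfl⟩)

theorem pFunctor'_stableOf : PFunctor'.{u} p (fun _ _ P => stableOf p P) :=
  ⟨fun _ _ P => stableOf_le P, fun _ _ _ _ hP h => stableOf_ne_bot hP h,
    fun _ _ _ _ _ f P _ h => map_stableOf f P h⟩

theorem hasNormalPComplement_of_normalizer_stableOf (h2 : p ≠ 2) {G : Type u} [Group G] [Finite G]
    (S : Sylow p G) (hN : HasNormalPComplement p (normalizer (stableOf p (S : Subgroup G) : Set G))) :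
    HasNormalPComplement p G :=
  pFunctor'_stableOf.hasNormalPComplement h2 (fun _ _ _ hc _ hT S =>
    stableOf_normal (isActionPStable_of_sylow_two_comm h2 default (hT _)) hc S) S hN

end Cfsg.Lib.Quad
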